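import Cfsg.Agent.H61.Ree3.Perms

/-!
The derived subgroup of the Ree group over three letters is simple of order 504.
-/

set_option autoImplicit false

open Cfsg.Lie
open scoped Matrix MatrixGroups commutatorElement

namespace Cfsg.Agent.H61.Ree3

local notation "GG" => twistedG2 (ZMod 3) 1

theorem wordMat_mem_group (q : GenIdx) : ∀ g : GL chevG2.Idx (ZMod 3),
    (g : Matrix chevG2.Idx chevG2.Idx (ZMod 3)) = chevG2.wordMat (ZMod 3) (genW q) → g ∈ GG := by
  intro g hg
  refine Subgroup.subset_closure ⟨genW q, ?_, hg⟩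
  obtain ⟨b, t, u, v⟩ := q
  refine ⟨t, u, v, ?_⟩
  cases b
  · exact Or.inl rfl
  · exact Or.inr rfl

theorem exists_genW {g : GL chevG2.Idx (ZMod 3)}
    (h : ∃ w ∈ g2Words (ZMod 3) 1, (g : Matrix chevG2.Idx chevG2.Idx (ZMod 3)) = chevG2.wordMat (ZMod 3) w) :
    ∃ q : GenIdx, (g : Matrix chevG2.Idx chevG2.Idx (ZMod 3)) = chevG2.wordMat (ZMod 3) (genW q) := by
  obtain ⟨w, ⟨t, u, v, hw⟩, hg⟩ := h
  rcases hw with rfl | rfl
  · exact ⟨(false, t, u, v), hg⟩
  · exact ⟨(true, t, u, v), hg⟩

theorem group_le_stab : GG ≤ stab := by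
  refine (Subgroup.closure_le _).2 fun g hg => ?_
  obtain ⟨q, hq⟩ := exists_genW hg
  exact ⟨gp q, fun i => by rw [hq]; exact gen_act q i⟩

/-- The function of an element. -/
noncomputable def act (g : ↥GG) (i : Fin 56) : Fin 56 := (group_le_stab g.2).choose i

theorem act_spec (g : ↥GG) (i : Fin 56) :
    (g.1 : Matrix chevG2.Idx chevG2.Idx (ZMod 3)) *ᵥ vfun i = vfun (act g i) :=
  (group_le_stab g.2).choose_spec i

theorem act_mul (g h : ↥GG) (i : Fin 56) : act (g * h) i = act g (act h i) := by
  apply vfun_injective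
  rw [← act_spec, ← act_spec, Subgroup.coe_mul, Units.val_mul, ← Matrix.mulVec_mulVec, act_spec]

theorem act_one (i : Fin 56) : act 1 i = i := by
  apply vfun_injective
  rw [← act_spec]
  simp

/-- The action. -/
noncomputable def rho : ↥GG →* Equiv.Perm (Fin 56) where
  toFun g :=
    { toFun := act g
      invFun := act g⁻¹
      left_inv := fun i => by rw [← act_mul, inv_mul_cancel, act_one]
      right_inv := fun i => by rw [← act_mul, mul_inv_cancel, act_one] }
  map_one' := Equiv.ext act_one
  map_mul' := fun g h => Equiv.ext (act_mul g h)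

theorem rho_injective : Function.Injective rho := by
  rw [injective_iff_map_eq_one]
  intro g hg
  apply Subtype.ext
  apply Units.ext
  refine fix_span _ fun i => ?_
  rw [act_spec]
  exact congrArg vfun (DFunLike.congr_fun hg i)

theorem gp_injective : ∀ q : GenIdx, Function.Injective (gp q) := by decide +kernel

/-- The image of the generators. -/
def gens : Set (Equiv.Perm (Fin 56)) := {x | ∃ q : GenIdx, ⇑x = gp q}

theorem rho_gen (g : ↥GG) (q : GenIdx)
    (h : (g.1 : Matrix chevG2.Idx chevG2.Idx (ZMod 3)) = chevG2.wordMat (ZMod 3) (genW q)) :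
    ⇑(rho g) = gp q := by
  funext i
  show act g i = gp q i
  apply vfun_injective
  rw [← act_spec, h, gen_act]

theorem range_rho_le : rho.range ≤ Subgroup.closure gens := by
  have htop : Subgroup.closure (Subtype.val ⁻¹' {g : GL chevG2.Idx (ZMod 3) | ∃ w ∈ g2Words (ZMod 3) 1,
      (g : Matrix chevG2.Idx chevG2.Idx (ZMod 3)) = chevG2.wordMat (ZMod 3) w} : Set ↥GG) = ⊤ :=
    Subgroup.closure_closure_coe_preimage
  rw [MonoidHom.range_eq_map, ← htop, MonoidHom.map_closure]
  refine Subgroup.closure_mono ?_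
  rintro x ⟨g, hg, rfl⟩
  obtain ⟨q, hq⟩ := exists_genW hg
  exact ⟨q, rho_gen g q hq⟩

theorem gp_pow : ∀ q : GenIdx, ∀ i, (gp q)^[9] i = i := by decide +kernel

theorem exists_rho (q : GenIdx) : ∃ g : ↥GG, ⇑(rho g) = gp q := by
  have h : ∀ (n : ℕ) (i : Fin 56),
      (chevG2.wordMat (ZMod 3) (genW q)) ^ n *ᵥ vfun i = vfun ((gp q)^[n] i) := by
    intro n
    induction n with
    | zero => intro i; simp
    | succ n ih => intro i; rw [pow_succ, ← Matrix.mulVec_mulVec, gen_act, ih, Function.iterate_succ_apply]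
  have h1 : (chevG2.wordMat (ZMod 3) (genW q)) ^ 9 = 1 :=
    fix_span _ fun i => by rw [h, gp_pow]
  have hu : IsUnit (chevG2.wordMat (ZMod 3) (genW q)) := IsUnit.of_pow_eq_one h1 (by norm_num)
  obtain ⟨g, hg⟩ := hu
  exact ⟨⟨g, wordMat_mem_group q g hg⟩, rho_gen _ q hg⟩

/-! ### The derived subgroup -/

noncomputable def permC : Equiv.Perm (Fin 56) :=
  Equiv.ofBijective (gp (false, 0, 1, 0)) (Finite.injective_iff_bijective.1 (gp_injective _))

theorem comm_data : ∀ i, el idxA (pget (genData.getD commA.2 0) (pget (genData.getD commA.1 0) i)) =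
      pget (genData.getD commA.1 0) (pget (genData.getD commA.2 0) i) ∧
    el idxB (pget (genData.getD commB.2 0) (pget (genData.getD commB.1 0) i)) =
      pget (genData.getD commB.1 0) (pget (genData.getD commB.2 0) i) := by
  decide +kernel

theorem comm_idx : (∃ q, genNum q = commA.1) ∧ (∃ q, genNum q = commA.2) ∧
    (∃ q, genNum q = commB.1) ∧ (∃ q, genNum q = commB.2) := by
  decide +kernel

theorem conjC_data : conjA < 504 ∧ conjB < 504 ∧
    ∀ i, gp (false, 0, 1, 0) (el idxA i) = el conjA (gp (false, 0, 1, 0) i) ∧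
      gp (false, 0, 1, 0) (el idxB i) = el conjB (gp (false, 0, 1, 0) i) := by
  decide +kernel

theorem dec_data : ∀ q : GenIdx, (decData.getD (genNum q) (0, 0)).1 < 504 ∧
    (decData.getD (genNum q) (0, 0)).2 < 3 ∧
    ∀ i, gp q i = el (decData.getD (genNum q) (0, 0)).1
      ((gp (false, 0, 1, 0))^[(decData.getD (genNum q) (0, 0)).2] i) := by
  decide +kernel

theorem map_commutator_rho : (commutator ↥GG).map rho = N0 := by
  apply le_antisymm
  · rw [Subgroup.map_le_iff_le_comap, commutator_def, Subgroup.commutator_le]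
    intro a _ b _
    show rho ⁅a, b⁆ ∈ N0
    rw [map_commutatorElement]
    set M := Subgroup.normalizer (N0 : Set (Equiv.Perm (Fin 56)))
    have hc : permC ∈ M := by
      have hmap : N0.map (MulAut.conj permC).toMonoidHom = N0 := by
        apply Subgroup.eq_of_le_of_card_ge
        · rw [N0, Subgroup.map_le_iff_le_comap, Subgroup.closure_le]
          obtain ⟨h1, h2, h3⟩ := conjC_data
          obtain ⟨x, hx, ex⟩ := exists_mem _ h1
          obtain ⟨y, hy, ey⟩ := exists_mem _ h2
          rintro g (rfl | rfl)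
          · show permC * permA * permC⁻¹ ∈ N0
            have : permC * permA = x * permC := by
              ext i; exact congrArg Fin.val ((h3 i).1.trans (congrFun ex _).symm)
            rwa [this, mul_inv_cancel_right]
          · show permC * permB * permC⁻¹ ∈ N0
            have : permC * permB = y * permC := by
              ext i; exact congrArg Fin.val ((h3 i).2.trans (congrFun ey _).symm)
            rwa [this, mul_inv_cancel_right]
        · rw [Subgroup.card_map_of_injective (MulAut.conj permC).injective]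
      rw [Subgroup.mem_normalizer_iff]
      intro h
      constructor
      · exact fun hh => hmap.le (Subgroup.mem_map_of_mem _ hh)
      · intro hh
        obtain ⟨z, hz, ez⟩ := hmap.ge hh
        exact ((MulAut.conj permC).injective ez) ▸ hz
    have key : ∀ x ∈ Subgroup.closure gens, ∃ n ∈ N0, ∃ k : ℤ, x = n * permC ^ k := by
      intro x hx
      induction hx using Subgroup.closure_induction with
      | mem x hx =>
        obtain ⟨q, hq⟩ := hx
        obtain ⟨h1, -, h3⟩ := dec_data q
        obtain ⟨n, hn, en⟩ := exists_mem _ h1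
        refine ⟨n, hn, ((decData.getD (genNum q) (0, 0)).2 : ℕ), Equiv.ext fun i => ?_⟩
        rw [zpow_natCast, Equiv.Perm.mul_apply, en, hq, h3 i, Equiv.Perm.coe_pow]
        rfl
      | one => exact ⟨1, one_mem _, 0, by simp⟩
      | mul x y _ _ ihx ihy =>
        obtain ⟨n, hn, k, rfl⟩ := ihx
        obtain ⟨n', hn', k', rfl⟩ := ihy
        refine ⟨n * (permC ^ k * n' * (permC ^ k)⁻¹), mul_mem hn
          ((Subgroup.mem_normalizer_iff.1 (M.zpow_mem hc k) n').1 hn'), k + k', ?_⟩
        rw [zpow_add]; group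
      | inv x _ ihx =>
        obtain ⟨n, hn, k, rfl⟩ := ihx
        refine ⟨permC ^ (-k) * n⁻¹ * (permC ^ (-k))⁻¹,
          (Subgroup.mem_normalizer_iff.1 (M.zpow_mem hc (-k)) _).1 (inv_mem hn), -k, ?_⟩
        group
    obtain ⟨n, hn, k, hk⟩ := key _ (range_rho_le ⟨a, rfl⟩)
    obtain ⟨n', hn', k', hk'⟩ := key _ (range_rho_le ⟨b, rfl⟩)
    rw [hk, hk', show ⁅n * permC ^ k, n' * permC ^ k'⁆ = n * (permC ^ k * n' * (permC ^ k)⁻¹) *
      (permC ^ k' * n⁻¹ * (permC ^ k')⁻¹) * n'⁻¹ by rw [commutatorElement_def]; group]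
    exact mul_mem (mul_mem (mul_mem hn ((Subgroup.mem_normalizer_iff.1 (M.zpow_mem hc k) n').1 hn'))
      ((Subgroup.mem_normalizer_iff.1 (M.zpow_mem hc k') _).1 (inv_mem hn))) (inv_mem hn')
  · rw [N0, Subgroup.closure_le]
    have hcm : ∀ a b : ↥GG, rho ⁅a, b⁆ ∈ (commutator ↥GG).map rho := fun a b =>
      Subgroup.mem_map_of_mem _ (by
        rw [commutator_def]; exact Subgroup.commutator_mem_commutator trivial trivial)
    obtain ⟨⟨q1, e1⟩, ⟨q2, e2⟩, ⟨q3, e3⟩, ⟨q4, e4⟩⟩ := comm_idx
    obtain ⟨a, ha⟩ := exists_rho q1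
    obtain ⟨b, hb⟩ := exists_rho q2
    obtain ⟨c, hc⟩ := exists_rho q3
    obtain ⟨d, hd⟩ := exists_rho q4
    rintro g (rfl | rfl)
    · have h : permA * (rho b * rho a) = rho a * rho b := by
        ext i
        simp only [Equiv.Perm.mul_apply, ha, hb, gp, e1, e2, coe_permA]
        exact congrArg Fin.val (comm_data i).1
      have h' : permA = rho ⁅a, b⁆ := by
        rw [map_commutatorElement, commutatorElement_def, ← h]; group
      exact h' ▸ hcm a b
    · have h : permB * (rho d * rho c) = rho c * rho d := by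
        ext i
        simp only [Equiv.Perm.mul_apply, hc, hd, gp, e3, e4, coe_permB]
        exact congrArg Fin.val (comm_data i).2
      have h' : permB = rho ⁅c, d⁆ := by
        rw [map_commutatorElement, commutatorElement_def, ← h]; group
      exact h' ▸ hcm c d

/-- The derived group is `N0`. -/
theorem derived_facts :
    Nat.card ↥(commutator ↥GG) = 504 ∧ IsSimpleGroup ↥(commutator ↥GG) := by
  let e : ↥(commutator ↥GG) ≃* ↥N0 :=
    ((commutator ↥GG).equivMapOfInjective rho rho_injective).trans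
      (MulEquiv.subgroupCongr map_commutator_rho)
  refine ⟨(Nat.card_congr e.toEquiv).trans card_N0, ?_⟩
  have := isSimpleGroup_N0
  exact e.isSimpleGroup

end Cfsg.Agent.H61.Ree3
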