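import Mathlib
import Cfsg.Prelude.Def_LieTwisted
import Cfsg.Agent.H61.Ree3.Data

/-!
A faithful action of the Ree group over the field with three elements on 56 vectors.
-/

set_option autoImplicit false

open Cfsg.Lie
open scoped Matrix MatrixGroups

namespace Cfsg.Agent.H61.Ree3

/-- Position of a coordinate. -/
def pos : chevG2.Idx → ℕ
  | .inl i => i.val
  | .inr s => 2 + s.val

/-- The vector of a list of residues. -/
def vec (l : List ℕ) : chevG2.Idx → ZMod 3 := fun i => ((l.getD (pos i) 0 : ℕ) : ZMod 3)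

noncomputable def rowOf (r t i : ℕ) : List (ℕ × ℕ) := (rowData.getD (3 * r + t) []).getD i []

noncomputable def stepL (r t : ℕ) (l : List ℕ) : List ℕ :=
  (List.range 14).map fun i =>
    (l.getD i 0 + ((rowOf r t i).map fun e => e.2 * l.getD e.1 0).sum) % 3

theorem xMat_rows_data : ∀ (a : Fin chevG2.nroots × ZMod 3) (b : chevG2.Idx × chevG2.Idx),
    chevG2.xMat (ZMod 3) a.1 a.2 b.1 b.2 = (if b.1 = b.2 then 1 else 0) +
      ((rowOf a.1.val a.2.val (pos b.1)).map fun e => if e.1 = pos b.2 then (e.2 : ZMod 3) else 0).sum := by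
  decide +kernel

theorem xMat_rows (r : Fin chevG2.nroots) (t : ZMod 3) (i j : chevG2.Idx) :
    chevG2.xMat (ZMod 3) r t i j = (if i = j then 1 else 0) +
      ((rowOf r.val t.val (pos i)).map fun e => if e.1 = pos j then (e.2 : ZMod 3) else 0).sum :=
  xMat_rows_data (r, t) (i, j)

theorem row_bound_data : ∀ (a : Fin chevG2.nroots × ZMod 3 × chevG2.Idx),
    ∀ e ∈ rowOf a.1.val a.2.1.val (pos a.2.2), ∃ j : chevG2.Idx, pos j = e.1 := by
  decide +kernel

theorem row_bound (r : Fin chevG2.nroots) (t : ZMod 3) (i : chevG2.Idx) :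
    ∀ e ∈ rowOf r.val t.val (pos i), ∃ j : chevG2.Idx, pos j = e.1 :=
  row_bound_data (r, t, i)

theorem pos_lt : ∀ i : chevG2.Idx, pos i < 14 := by decide +kernel

theorem pos_inj : ∀ i j : chevG2.Idx, pos i = pos j → i = j := by decide +kernel

theorem sum_row (l : List ℕ) : ∀ (es : List (ℕ × ℕ)), (∀ e ∈ es, ∃ j : chevG2.Idx, pos j = e.1) →
    ∑ j : chevG2.Idx, (es.map fun e => if e.1 = pos j then (e.2 : ZMod 3) else 0).sum * vec l j =
      (((es.map fun e => e.2 * l.getD e.1 0).sum : ℕ) : ZMod 3)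
  | [], _ => by simp
  | e :: es, h => by
    obtain ⟨j0, hj0⟩ := h e (List.mem_cons_self)
    have ih := sum_row l es (fun x hx => h x (List.mem_cons_of_mem _ hx))
    simp only [List.map_cons, List.sum_cons, add_mul, Finset.sum_add_distrib, Nat.cast_add, ih]
    congr 1
    rw [Finset.sum_eq_single j0]
    · simp [vec, hj0]
    · intro j _ hj
      rw [if_neg, zero_mul]
      exact fun he => hj (pos_inj _ _ (hj0.trans he).symm)
    · simp

theorem xMat_mulVec (r : Fin chevG2.nroots) (t : ZMod 3) (l : List ℕ) :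
    chevG2.xMat (ZMod 3) r t *ᵥ vec l = vec (stepL r.val t.val l) := by
  funext i
  have h := sum_row l _ (row_bound r t i)
  simp only [Matrix.mulVec, dotProduct, xMat_rows, add_mul, Finset.sum_add_distrib, h]
  simp only [ite_mul, one_mul, zero_mul, Finset.sum_ite_eq, Finset.mem_univ, if_true]
  simp only [vec, stepL]
  rw [List.getD_eq_getElem?_getD (l := List.map _ _), List.getElem?_map,
    List.getElem?_range (pos_lt i)]
  simp

noncomputable def stepW (w : List (ℕ × ZMod 3)) (l : List ℕ) : List ℕ :=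
  w.foldr (fun p acc => stepL p.1 p.2.val acc) l

theorem wordMat_mulVec : ∀ (w : List (ℕ × ZMod 3)) (l : List ℕ), (∀ p ∈ w, p.1 < chevG2.nroots) →
    chevG2.wordMat (ZMod 3) w *ᵥ vec l = vec (stepW w l)
  | [], l, _ => by simp [ChevalleyDatum.wordMat, stepW]
  | p :: w, l, h => by
    have ih := wordMat_mulVec w l (fun q hq => h q (List.mem_cons_of_mem _ hq))
    rw [show chevG2.wordMat (ZMod 3) (p :: w) = chevG2.x (ZMod 3) p.1 p.2 * chevG2.wordMat (ZMod 3) w
      from List.prod_cons, ← Matrix.mulVec_mulVec, ih, ChevalleyDatum.x, dif_pos (h p List.mem_cons_self),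
      xMat_mulVec]
    rfl

/-- Parameters of the generators. -/
abbrev GenIdx : Type := Bool × ZMod 3 × ZMod 3 × ZMod 3

def genW (q : GenIdx) : List (ℕ × ZMod 3) :=
  if q.1 then reeWordV 1 q.2.1 q.2.2.1 q.2.2.2 else reeWordU 1 q.2.1 q.2.2.1 q.2.2.2

def genNum (q : GenIdx) : ℕ :=
  (if q.1 then 27 else 0) + 9 * q.2.1.val + 3 * q.2.2.1.val + q.2.2.2.val

def pget (c : ℕ) (i : Fin 56) : Fin 56 := Fin.ofNat 56 ((c >>> (6 * i.val)) % 64)

noncomputable def vfun (i : Fin 56) : chevG2.Idx → ZMod 3 := vec (vecData.getD i.val [])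

noncomputable def gp (q : GenIdx) : Fin 56 → Fin 56 := pget (genData.getD (genNum q) 0)

theorem genW_lt : ∀ q : GenIdx, ∀ p ∈ genW q, p.1 < chevG2.nroots := by decide +kernel

theorem gen_act_data : ∀ (q : GenIdx) (i : Fin 56),
    stepW (genW q) (vecData.getD i.val []) = vecData.getD (gp q i).val [] := by
  decide +kernel

theorem gen_act (q : GenIdx) (i : Fin 56) :
    chevG2.wordMat (ZMod 3) (genW q) *ᵥ vfun i = vfun (gp q i) := by
  rw [vfun, wordMat_mulVec _ _ (genW_lt q), gen_act_data]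
  rfl

theorem vfun_inj_data : ∀ i j : Fin 56, (∀ x, vfun i x = vfun j x) → i = j := by decide +kernel

theorem vfun_injective : Function.Injective vfun :=
  fun i j h => vfun_inj_data i j (congrFun h)

noncomputable def spanAt (j : chevG2.Idx) : List (ℕ × ℕ) := spanData.getD (pos j) []

theorem span_data : ∀ j x : chevG2.Idx,
    ((spanAt j).map fun e => (e.2 : ZMod 3) * vfun (Fin.ofNat 56 e.1) x).sum = if x = j then 1 else 0 := by
  decide +kernel

theorem fix_span (M : Matrix chevG2.Idx chevG2.Idx (ZMod 3)) (h : ∀ i, M *ᵥ vfun i = vfun i) : M = 1 := by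
  have key : ∀ es : List (ℕ × ℕ),
      M *ᵥ ((fun x => (es.map fun e => (e.2 : ZMod 3) * vfun (Fin.ofNat 56 e.1) x).sum)) =
        fun x => (es.map fun e => (e.2 : ZMod 3) * vfun (Fin.ofNat 56 e.1) x).sum := by
    intro es
    induction es with
    | nil => funext x; simp [Matrix.mulVec, dotProduct]
    | cons e es ih =>
      have e0 : (fun x => ((e :: es).map fun e => (e.2 : ZMod 3) * vfun (Fin.ofNat 56 e.1) x).sum) =
          (e.2 : ZMod 3) • vfun (Fin.ofNat 56 e.1) +
            fun x => (es.map fun e => (e.2 : ZMod 3) * vfun (Fin.ofNat 56 e.1) x).sum := by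
        funext x; simp
      rw [e0, Matrix.mulVec_add, Matrix.mulVec_smul, h, ih]
  ext i j
  have := congrFun (key (spanAt j)) i
  simp only [span_data] at this
  rw [Matrix.one_apply]
  simpa [Matrix.mulVec, dotProduct] using this

/-- The matrices permuting the vectors. -/
noncomputable def stab : Subgroup (GL chevG2.Idx (ZMod 3)) where
  carrier := {g | ∃ f : Fin 56 → Fin 56, ∀ i,
    (g : Matrix chevG2.Idx chevG2.Idx (ZMod 3)) *ᵥ vfun i = vfun (f i)}
  one_mem' := ⟨id, fun i => by simp⟩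
  mul_mem' := fun {a b} ha hb => by
    obtain ⟨f, hf⟩ := ha
    obtain ⟨f', hf'⟩ := hb
    exact ⟨f ∘ f', fun i => by simp [← Matrix.mulVec_mulVec, hf, hf']⟩
  inv_mem' := fun {a} ha => by
    obtain ⟨f, hf⟩ := ha
    have hinj : Function.Injective f := fun i j h => by
      apply vfun_injective
      have := (hf i).trans ((congrArg vfun h).trans (hf j).symm)
      have := congrArg (((a⁻¹ : GL chevG2.Idx (ZMod 3)) : Matrix chevG2.Idx chevG2.Idx (ZMod 3)) *ᵥ ·) this
      simpa [Matrix.mulVec_mulVec] using this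
    obtain ⟨e, he⟩ : ∃ e : Fin 56 ≃ Fin 56, ⇑e = f :=
      ⟨Equiv.ofBijective f (Finite.injective_iff_bijective.1 hinj), rfl⟩
    refine ⟨e.symm, fun i => ?_⟩
    have h := hf (e.symm i)
    rw [← he, Equiv.apply_symm_apply] at h
    rw [← h, Matrix.mulVec_mulVec]
    simp

end Cfsg.Agent.H61.Ree3
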