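import Cfsg.Agent.H61.Ree3.Model

/-!
The permutation group of the certificates: a simple subgroup of order 504.
-/

set_option autoImplicit false

open Cfsg.Lie

namespace Cfsg.Agent.H61.Ree3

noncomputable def look (d : List (List ℕ)) (k : ℕ) : ℕ := (d.getD (k / 24) []).getD (k % 24) 0

noncomputable def look2 (d : List (List (ℕ × ℕ))) (k : ℕ) : ℕ × ℕ :=
  (d.getD (k / 24) []).getD (k % 24) (0, 0)

/-- The function of a listed element. -/
noncomputable def el (k : ℕ) : Fin 56 → Fin 56 := pget (look elData k)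

noncomputable def permA : Equiv.Perm (Fin 56) :=
  Equiv.ofBijective (el idxA) (Finite.injective_iff_bijective.1 (by decide +kernel))

noncomputable def permB : Equiv.Perm (Fin 56) :=
  Equiv.ofBijective (el idxB) (Finite.injective_iff_bijective.1 (by decide +kernel))

theorem coe_permA : ⇑permA = el idxA := rfl

theorem coe_permB : ⇑permB = el idxB := rfl

/-- The derived group. -/
noncomputable def N0 : Subgroup (Equiv.Perm (Fin 56)) := Subgroup.closure {permA, permB}

theorem el_zero : el 0 = id := by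
  funext i
  revert i
  decide +kernel

theorem par_data : ∀ k : Fin 504, k.val ≠ 0 →
    (look2 parData k.val).2 < k.val ∧ ∀ i, el k.val i =
      (if (look2 parData k.val).1 = 0 then el idxA else el idxB) (el (look2 parData k.val).2 i) := by
  decide +kernel

theorem exists_mem (k : ℕ) (hk : k < 504) : ∃ x ∈ N0, ⇑x = el k := by
  induction k using Nat.strong_induction_on with
  | _ k ih =>
    rcases eq_or_ne k 0 with rfl | h0
    · exact ⟨1, one_mem _, el_zero.symm⟩
    · obtain ⟨hlt, he⟩ := par_data ⟨k, hk⟩ h0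
      obtain ⟨y, hy, ey⟩ := ih _ hlt (hlt.trans hk)
      by_cases hg : (look2 parData k).1 = 0
      · refine ⟨permA * y, mul_mem (Subgroup.subset_closure (by simp)) hy, funext fun i => ?_⟩
        rw [Equiv.Perm.mul_apply, coe_permA, ey, he i, if_pos hg]
      · refine ⟨permB * y, mul_mem (Subgroup.subset_closure (by simp)) hy, funext fun i => ?_⟩
        rw [Equiv.Perm.mul_apply, coe_permB, ey, he i, if_neg hg]

theorem mulA_data : ∀ k : Fin 504, look mulAData k.val < 504 ∧
    ∀ i, el idxA (el k.val i) = el (look mulAData k.val) i := by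
  decide +kernel

theorem mulB_data : ∀ k : Fin 504, look mulBData k.val < 504 ∧
    ∀ i, el idxB (el k.val i) = el (look mulBData k.val) i := by
  decide +kernel

theorem exists_index {x : Equiv.Perm (Fin 56)} (hx : x ∈ N0) : ∃ k, k < 504 ∧ ⇑x = el k := by
  have hx' : x ∈ Submonoid.closure ({permA, permB} : Set (Equiv.Perm (Fin 56))) := by
    rw [← Subgroup.closure_toSubmonoid_of_finite]
    exact hx
  clear hx
  induction hx' using Submonoid.closure_induction_left with
  | one => exact ⟨0, by norm_num, el_zero.symm⟩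
  | mul_left g hg y _ ih =>
    obtain ⟨k, hk, ey⟩ := ih
    rcases hg with rfl | rfl
    · obtain ⟨h1, h2⟩ := mulA_data ⟨k, hk⟩
      refine ⟨_, h1, funext fun i => ?_⟩
      rw [Equiv.Perm.mul_apply, coe_permA, ey]
      exact h2 i
    · obtain ⟨h1, h2⟩ := mulB_data ⟨k, hk⟩
      refine ⟨_, h1, funext fun i => ?_⟩
      rw [Equiv.Perm.mul_apply, coe_permB, ey]
      exact h2 i

theorem el_bij {k : ℕ} (hk : k < 504) : Function.Bijective (el k) := by
  obtain ⟨x, -, e⟩ := exists_mem k hk
  exact e ▸ x.bijective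

/-- The code of a function. -/
def encode (f : Fin 56 → Fin 56) : ℕ :=
  (List.finRange 56).foldr (fun i acc => acc + (f i).val <<< (6 * i.val)) 0

theorem encode_data : ∀ k : Fin 504, encode (el k.val) = look elData k.val := by decide +kernel

theorem nodup_data : elData.flatten.Nodup ∧ elData.flatten.length = 504 := by decide +kernel

theorem look_flatten : ∀ k : Fin 504, look elData k.val = elData.flatten.getD k.val 0 := by
  decide +kernel

theorem el_injective {j k : ℕ} (hj : j < 504) (hk : k < 504) (h : el j = el k) : j = k := by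
  have e := congrArg encode h
  rw [encode_data ⟨j, hj⟩, encode_data ⟨k, hk⟩, look_flatten ⟨j, hj⟩, look_flatten ⟨k, hk⟩] at e
  have hl := nodup_data.2
  rw [List.getD_eq_getElem _ _ (by rw [hl]; exact hj), List.getD_eq_getElem _ _ (by rw [hl]; exact hk)] at e
  exact (List.Nodup.getElem_inj_iff nodup_data.1).1 e

theorem card_N0 : Nat.card ↥N0 = 504 := by
  let f : Fin 504 → ↥N0 := fun k =>
    ⟨(exists_mem k.val k.isLt).choose, (exists_mem k.val k.isLt).choose_spec.1⟩
  have hf : ∀ k, ⇑(f k).1 = el k.val := fun k => (exists_mem k.val k.isLt).choose_spec.2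
  have hb : Function.Bijective f := by
    refine ⟨fun a b h => Fin.ext (el_injective a.isLt b.isLt ?_), fun x => ?_⟩
    · rw [← hf, ← hf, h]
    · obtain ⟨k, hk, e⟩ := exists_index x.2
      exact ⟨⟨k, hk⟩, Subtype.ext (DFunLike.coe_injective ((hf _).trans e.symm))⟩
  rw [← Nat.card_eq_of_bijective f hb, Nat.card_eq_fintype_card, Fintype.card_fin]

theorem conj_data : ∀ k : Fin 504, k.val ≠ 0 →
    (look2 conjData k.val).1 < 8 ∧ (look2 conjData k.val).2 < 504 ∧
      ∀ i, el k.val (el (look2 conjData k.val).2 i) =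
        el (look2 conjData k.val).2 (el (repData.getD (look2 conjData k.val).1 0) i) := by
  decide +kernel

theorem rep_data : ∀ r : Fin 8, repData.getD r.val 0 < 504 := by decide +kernel

/-- Checking a product of conjugates. -/
noncomputable def chk (rep : ℕ) : ℕ → List (ℕ × ℕ × ℕ) → ℕ → Bool
  | cur, [], tgt => cur == tgt
  | cur, (n, j, y) :: l, tgt =>
    decide (n < 504) && decide (j < 504) && decide (y < 504) &&
      decide (∀ i, el j (el n i) = el n (el rep i)) && decide (∀ i, el cur (el j i) = el y i) &&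
      chk rep y l tgt

theorem word_data : ∀ r : Fin 8,
    chk (repData.getD r.val 0) 0 (wordData.getD r.val ([], [])).1 idxA = true ∧
      chk (repData.getD r.val 0) 0 (wordData.getD r.val ([], [])).2 idxB = true := by
  decide +kernel

theorem isSimpleGroup_N0 : IsSimpleGroup ↥N0 := by
  have hA : permA ∈ N0 := Subgroup.subset_closure (by simp)
  have hB : permB ∈ N0 := Subgroup.subset_closure (by simp)
  have hnt : Nontrivial ↥N0 := by
    rw [← Finite.one_lt_card_iff_nontrivial, card_N0]; norm_num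
  refine ⟨fun M hM => ?_⟩
  rcases eq_or_ne M ⊥ with h | h
  · exact Or.inl h
  obtain ⟨x, hxM, hx1⟩ : ∃ x ∈ M, x ≠ (1 : ↥N0) := by
    by_contra hc
    push Not at hc
    exact h ((Subgroup.eq_bot_iff_forall _).2 hc)
  obtain ⟨k, hk, ek⟩ := exists_index x.2
  have hk0 : k ≠ 0 := by
    rintro rfl
    exact hx1 (Subtype.ext (DFunLike.coe_injective (ek.trans el_zero)))
  obtain ⟨hr, hn, hc⟩ := conj_data ⟨k, hk⟩ hk0
  set r := (look2 conjData k).1
  obtain ⟨n, hnN, en⟩ := exists_mem _ hn
  obtain ⟨p, hpN, ep⟩ := exists_mem _ (rep_data ⟨r, hr⟩)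
  have hp : (⟨p, hpN⟩ : ↥N0) ∈ M := by
    have e1 : x.1 * n = n * p := by
      ext i
      simp only [Equiv.Perm.mul_apply, ek, en, ep]
      exact congrArg Fin.val (hc i)
    have e : (⟨p, hpN⟩ : ↥N0) = (⟨n, hnN⟩ : ↥N0)⁻¹ * x * (⟨n, hnN⟩ : ↥N0)⁻¹⁻¹ := by
      apply Subtype.ext
      simp only [Subgroup.coe_mul, Subgroup.coe_inv, inv_inv, mul_assoc, e1]
      group
    rw [e]
    exact hM.conj_mem x hxM _
  have key : ∀ (l : List (ℕ × ℕ × ℕ)) (cur : ℕ) (q : ↥N0) (tgt : ℕ), q ∈ M → ⇑q.1 = el cur →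
      chk (repData.getD r 0) cur l tgt = true → ∃ q : ↥N0, q ∈ M ∧ ⇑q.1 = el tgt := by
    intro l
    induction l with
    | nil =>
      intro cur q tgt hq eq hcur
      simp only [chk, beq_iff_eq] at hcur
      exact ⟨q, hq, hcur ▸ eq⟩
    | cons a l ih =>
      obtain ⟨n', j, y⟩ := a
      intro cur q tgt hq eq hcur
      simp only [chk, Bool.and_eq_true, decide_eq_true_eq] at hcur
      obtain ⟨⟨⟨⟨⟨hn', hj⟩, -⟩, hcj⟩, hy⟩, hrec⟩ := hcur
      obtain ⟨m, hmN, em⟩ := exists_mem _ hn'
      have hmem : (⟨m, hmN⟩ : ↥N0) * ⟨p, hpN⟩ * (⟨m, hmN⟩ : ↥N0)⁻¹ ∈ M := hM.conj_mem _ hp _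
      refine ih y _ tgt (mul_mem hq hmem) (funext fun i => ?_) hrec
      simp only [Subgroup.coe_mul, Subgroup.coe_inv, Equiv.Perm.mul_apply, eq, em, ep]
      rw [← hy i]
      congr 1
      obtain ⟨i', rfl⟩ := (el_bij hn').surjective i
      rw [hcj i', ← em]
      simp
  have hwA := (word_data ⟨r, hr⟩).1
  have hwB := (word_data ⟨r, hr⟩).2
  obtain ⟨qA, hqA, eA⟩ := key _ 0 1 _ (one_mem _) el_zero.symm hwA
  obtain ⟨qB, hqB, eB⟩ := key _ 0 1 _ (one_mem _) el_zero.symm hwB
  refine Or.inr (eq_top_iff.2 fun z _ => ?_)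
  have hle : N0 ≤ M.map N0.subtype := by
    refine (Subgroup.closure_le _).2 ?_
    rintro g (rfl | rfl)
    · exact ⟨qA, hqA, DFunLike.coe_injective (eA.trans coe_permA.symm)⟩
    · exact ⟨qB, hqB, DFunLike.coe_injective (eB.trans coe_permB.symm)⟩
  obtain ⟨w, hw, hwz⟩ := hle z.2
  exact Subtype.ext hwz ▸ hw

end Cfsg.Agent.H61.Ree3
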